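import Cfsg.Agent.OD.Pre
import Cfsg.Agent.H6.Top2
import Cfsg.Agent.H6.U6A.C
set_option autoImplicit false
set_option maxRecDepth 100000
set_option Elab.async false
set_option linter.all false
namespace CfH6.U6A
open CfH6 MulAction
theorem e0_0 : EqsOk nets0 eqs0 8192 13 0 13 :=
  eqsOk_of _ _ _ _ 0 13 _ (by decide) (by decide +kernel)
theorem ok0 : okNets 8192 nets0 = true := by decide +kernel
theorem x1_0 : NxOk nets0 ws1 nets1 7 8192 13 8192 0 13 :=
  nxOk_of _ _ _ _ _ _ _ 0 13 _ (by decide) (by decide +kernel)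
theorem sx1 : sideNx ws1 nets1 8 8192 13 8192 = true := by decide +kernel
theorem x2_0 : NxOk nets1 ws2 nets2 4 8192 13 64 0 13 :=
  nxOk_of _ _ _ _ _ _ _ 0 13 _ (by decide) (by decide +kernel)
theorem sx2 : sideNx ws2 nets2 7 8192 13 64 = true := by decide +kernel
theorem x3_0 : NxOk nets2 ws3 nets3 3 64 6 12 0 6 :=
  nxOk_of _ _ _ _ _ _ _ 0 6 _ (by decide) (by decide +kernel)
theorem sx3 : sideNx ws3 nets3 4 64 6 12 = true := by decide +kernel
theorem oi1_0 : (Nat.blt 0 7 && Nat.beq (orbN nets1 7 35 (Nat.shiftLeft 1 64)) S1) = true := by decide +kernel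
theorem ci1 : (Nat.beq (chkInv nets1 7 S1) 0 && S1.testBit 64) = true := by decide +kernel
theorem oi2_0 : (Nat.blt 0 7 && Nat.beq (orbN nets1 7 35 (Nat.shiftLeft 1 331)) S2) = true := by decide +kernel
theorem ci2 : (Nat.beq (chkInv nets1 7 S2) 0 && S2.testBit 331) = true := by decide +kernel
theorem oi3_0 : (Nat.blt 0 7 && Nat.beq (orbN nets1 7 42 (Nat.shiftLeft 1 10)) S3) = true := by decide +kernel
theorem ci3 : (Nat.beq (chkInv nets1 7 S3) 0 && S3.testBit 10) = true := by decide +kernel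
theorem cm3 : chkMx 8192 nets0 8 ws1 7 6336 w3 10 J3 lBig = true := by decide +kernel
theorem cm2 : chkMx 8192 nets0 8 ws1 7 6336 w2 331 J2 lBig = true := by decide +kernel
theorem cm1 : chkMx 8192 nets0 8 ws1 7 6336 w1 64 J1 lBig = true := by decide +kernel
theorem og3 : Nat.ble 8 (popc 4 (orbN nets3 3 3 (Nat.shiftLeft 1 2))) = true := by decide +kernel
theorem og2 : Nat.ble 48 (popc 6 (orbN nets2 4 8 (Nat.shiftLeft 1 1))) = true := by decide +kernel
theorem pw0 : (allLt 8 (wpow [6, 2, 7, 5, 1, 5, 4, 0, 3] (11 ^ 1)) && bs'.all fun b => Nat.blt b 8192 && Nat.beq (chkMap nets0 (wpow [6, 2, 7, 5, 1, 5, 4, 0, 3] (11 ^ 1)) b b) 0) = true := by decide +kernel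
end CfH6.U6A
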